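/-
Endomorphisms with `T^r` scalar: classification.
-/
import Cfsg.Agent.Lib.MatConj.Semisimple
import Cfsg.Agent.Lib.MatConj.Tg

set_option autoImplicit false
set_option linter.unusedSectionVars false

namespace Cfsg.Agent.Lib.PGLr

open Polynomial Module Cfsg.Agent.Lib.MatConj.Semisimple Cfsg.Agent.Lib.MatConj.Tg

universe u

section LinAlg

variable {F : Type u} [Field F] {V : Type u} [AddCommGroup V] [Module F V]

/-- the dimension of an eigenspace -/
noncomputable def dm (T : V →ₗ[F] V) (y : F) : ℕ := finrank F (LinearMap.ker (T - y • 1))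

theorem aeval_sub_C (T : V →ₗ[F] V) (y : F) : aeval T (X - C y : F[X]) = T - y • 1 := by
  simp [Algebra.algebraMap_eq_smul_one]

variable [FiniteDimensional F V]

theorem card_fiber {κ : Type*} [Fintype κ] {T : V →ₗ[F] V} {R : κ → F[X]} {Φ : V ≃ₗ[F] ∀ k, AdjoinRoot (R k)}
    (h : SSDecomp T R Φ) (y : F) : Nat.card {k // R k = X - C y} = dm T y := by
  classical
  have := h.finrank_ker (X - C y) (irreducible_X_sub_C y) (monic_X_sub_C y)
  rw [aeval_sub_C, natDegree_X_sub_C, mul_one] at this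
  rw [dm, this, Nat.card_eq_fintype_card]

theorem exists_decomp_root {r : ℕ} (hr : 0 < r) (hrF : (r : F) ≠ 0) {ω : F} (hω : IsPrimitiveRoot ω r)
    (T : V →ₗ[F] V) (hT : T ^ r = 1) :
    ∃ (κ : Type u) (_ : Fintype κ) (R : κ → F[X]) (Φ : V ≃ₗ[F] ∀ k, AdjoinRoot (R k)),
      SSDecomp T R Φ ∧ ∀ k, ∃ y : F, y ^ r = 1 ∧ R k = X - C y := by
  classical
  have hsf : Squarefree (X ^ r - C 1 : F[X]) :=
    (Polynomial.separable_X_pow_sub_C (1 : F) hrF one_ne_zero).squarefree
  have h0 : aeval T (X ^ r - C 1 : F[X]) = 0 := by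
    simp [hT]
  obtain ⟨κ, hκ, R, Φ, hD, hR⟩ := exists_ssDecomp T _ hsf h0
  refine ⟨κ, hκ, R, Φ, hD, fun k => ?_⟩
  have h3 : (X ^ r - C 1 : F[X]) = ∏ ζ ∈ nthRootsFinset r (1 : F), (X - C ζ) := by
    rw [map_one]
    exact Polynomial.X_pow_sub_one_eq_prod hr hω
  have h4 := hR k
  rw [h3, (hD.irr k).prime.dvd_finsetProd_iff] at h4
  obtain ⟨y, hy, h5⟩ := h4
  refine ⟨y, ?_, ?_⟩
  · haveI : NeZero r := ⟨hr.ne'⟩
    exact (mem_nthRootsFinset hr 1).1 hy
  · exact eq_of_monic_of_associated (hD.monic k) (monic_X_sub_C y)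
      ((hD.irr k).associated_of_dvd (irreducible_X_sub_C y) h5)

theorem conj_of_dm {r : ℕ} (hr : 0 < r) (hrF : (r : F) ≠ 0) {ω : F} (hω : IsPrimitiveRoot ω r)
    (T T' : V →ₗ[F] V) (hT : T ^ r = 1) (hT' : T' ^ r = 1)
    (h : ∀ y : F, y ^ r = 1 → dm T y = dm T' y) :
    ∃ P : V ≃ₗ[F] V, ∀ x, P (T x) = T' (P x) := by
  obtain ⟨κ, hκ, R, Φ, hD, hR⟩ := exists_decomp_root hr hrF hω T hT
  obtain ⟨κ', hκ', R', Φ', hD', hR'⟩ := exists_decomp_root hr hrF hω T' hT'
  refine conj_of_card hD hD' fun Q => ?_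
  by_cases h1 : ∃ y : F, y ^ r = 1 ∧ Q = X - C y
  · obtain ⟨y, hy, rfl⟩ := h1
    rw [card_fiber hD, card_fiber hD', h y hy]
  · have h4 : ∀ {κ'' : Type u} [Fintype κ''] (R'' : κ'' → F[X]), (∀ k, ∃ y : F, y ^ r = 1 ∧ R'' k = X - C y) →
        Nat.card {k // R'' k = Q} = 0 := by
      intro κ'' _ R'' hR''
      rw [Nat.card_eq_zero]
      left
      constructor
      rintro ⟨k, hk⟩
      obtain ⟨y, hy, h5⟩ := hR'' k
      exact h1 ⟨y, hy, hk ▸ h5⟩
    rw [h4 R hR, h4 R' hR']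

theorem dm_of_conj (T T' : V →ₗ[F] V) (P : V ≃ₗ[F] V) (hP : ∀ x, P (T x) = T' (P x)) (y : F) :
    dm T y = dm T' y := by
  apply LinearEquiv.finrank_eq
  refine (P.submoduleMap _).trans (LinearEquiv.ofEq _ _ ?_)
  ext v
  simp only [Submodule.mem_map, LinearMap.mem_ker, LinearMap.sub_apply, LinearMap.smul_apply,
    Module.End.one_apply]
  constructor
  · rintro ⟨x, hx, rfl⟩
    have h1 := congrArg P hx
    rw [map_sub, hP, map_smul, map_zero] at h1
    exact h1
  · intro hy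
    refine ⟨P.symm v, ?_, by simp⟩
    apply P.injective
    rw [map_sub, hP, map_smul, map_zero]
    simpa using hy

theorem dm_smul (T : V →ₗ[F] V) (c y : F) (hc : c ≠ 0) : dm (c • T) (c * y) = dm T y := by
  unfold dm
  have h1 : LinearMap.ker (c • T - (c * y) • 1) = LinearMap.ker (T - y • 1) := by
    ext v
    simp only [LinearMap.mem_ker, LinearMap.sub_apply, LinearMap.smul_apply, Module.End.one_apply]
    rw [mul_smul, ← smul_sub, smul_eq_zero]
    simp [hc]
  rw [h1]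

theorem dm_sum {r : ℕ} (hr : 0 < r) (hrF : (r : F) ≠ 0) {ω : F} (hω : IsPrimitiveRoot ω r)
    {ι : Type*} [Fintype ι] (e : ι → F) (he : Function.Injective e)
    (he2 : ∀ y : F, y ^ r = 1 → ∃ j, e j = y) (T : V →ₗ[F] V) (hT : T ^ r = 1) :
    ∑ j, dm T (e j) = finrank F V := by
  classical
  obtain ⟨κ, hκ, R, Φ, hD, hR⟩ := exists_decomp_root hr hrF hω T hT
  have hfd : ∀ k, FiniteDimensional F (AdjoinRoot (R k)) := fun k => (AdjoinRoot.powerBasis' (hD.monic k)).finite
  have h1 : finrank F V = Fintype.card κ := by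
    rw [Φ.finrank_eq, Module.finrank_pi_fintype]
    have : ∀ k, finrank F (AdjoinRoot (R k)) = 1 := by
      intro k
      rw [finrank_adjoinRoot _ (hD.monic k)]
      obtain ⟨y, -, h2⟩ := hR k
      rw [h2, natDegree_X_sub_C]
    simp [this]
  rw [h1]
  have hex : ∀ k, ∃ j, R k = X - C (e j) := by
    intro k
    obtain ⟨y, hy, h2⟩ := hR k
    obtain ⟨j, rfl⟩ := he2 y hy
    exact ⟨j, h2⟩
  choose φ hφ using hex
  have h2 : ∀ j, dm T (e j) = Fintype.card {k // φ k = j} := by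
    intro j
    rw [← card_fiber hD, Nat.card_eq_fintype_card]
    refine Fintype.card_congr (Equiv.subtypeEquivRight fun k => ?_)
    constructor
    · intro h3
      rw [hφ] at h3
      have h4 : C (e (φ k)) = C (e j) := sub_right_injective h3
      exact he (C_injective h4)
    · rintro rfl
      exact hφ k
  simp only [h2]
  rw [← Fintype.card_sigma]
  exact Fintype.card_congr (Equiv.sigmaFiberEquiv φ)

/-! ### Non-power scalars -/

theorem exists_decomp_mu {r : ℕ} (hr : r.Prime) {μ : F} (hμ : ∀ b : F, b ^ r ≠ μ) (T : V →ₗ[F] V) (hT : T ^ r = μ • 1) :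
    ∃ (κ : Type u) (_ : Fintype κ) (R : κ → F[X]) (Φ : V ≃ₗ[F] ∀ k, AdjoinRoot (R k)),
      SSDecomp T R Φ ∧ ∀ k, R k = X ^ r - C μ := by
  classical
  have hirr : Irreducible (X ^ r - C μ : F[X]) := X_pow_sub_C_irreducible_of_prime hr hμ
  have h0 : aeval T (X ^ r - C μ : F[X]) = 0 := by
    simp only [map_sub, map_pow, aeval_X, aeval_C, hT, sub_eq_zero]
    rfl
  obtain ⟨κ, hκ, R, Φ, hD, hR⟩ := exists_ssDecomp T _ hirr.squarefree h0
  refine ⟨κ, hκ, R, Φ, hD, fun k => ?_⟩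
  exact eq_of_monic_of_associated (hD.monic k) (monic_X_pow_sub_C _ hr.ne_zero)
    ((hD.irr k).associated_of_dvd hirr (hR k))

theorem card_mu {r : ℕ} {μ : F} {κ : Type*} [Fintype κ] {T : V →ₗ[F] V} {R : κ → F[X]} {Φ : V ≃ₗ[F] ∀ k, AdjoinRoot (R k)}
    (h : SSDecomp T R Φ) (hR : ∀ k, R k = X ^ r - C μ) (hr : r ≠ 0) : Fintype.card κ * r = finrank F V := by
  have hfd : ∀ k, FiniteDimensional F (AdjoinRoot (R k)) := fun k => (AdjoinRoot.powerBasis' (h.monic k)).finite
  rw [Φ.finrank_eq, Module.finrank_pi_fintype]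
  have : ∀ k, finrank F (AdjoinRoot (R k)) = r := by
    intro k
    rw [finrank_adjoinRoot _ (h.monic k), hR]
    exact natDegree_X_pow_sub_C
  simp [this]

theorem conj_of_pow_mu {r : ℕ} (hr : r.Prime) {μ : F} (hμ : ∀ b : F, b ^ r ≠ μ) (T T' : V →ₗ[F] V)
    (hT : T ^ r = μ • 1) (hT' : T' ^ r = μ • 1) :
    ∃ P : V ≃ₗ[F] V, ∀ x, P (T x) = T' (P x) := by
  obtain ⟨κ, hκ, R, Φ, hD, hR⟩ := exists_decomp_mu hr hμ T hT
  obtain ⟨κ', hκ', R', Φ', hD', hR'⟩ := exists_decomp_mu hr hμ T' hT'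
  have h1 := card_mu hD hR hr.ne_zero
  have h2 := card_mu hD' hR' hr.ne_zero
  have h3 : Fintype.card κ = Fintype.card κ' := Nat.eq_of_mul_eq_mul_right hr.pos (h1.trans h2.symm)
  refine conj_of_card hD hD' fun Q => ?_
  by_cases h4 : Q = X ^ r - C μ
  · subst h4
    have h5 : ∀ {κ'' : Type u} [Fintype κ''] (R'' : κ'' → F[X]), (∀ k, R'' k = X ^ r - C μ) →
        Nat.card {k // R'' k = X ^ r - C μ} = Fintype.card κ'' := by
      intro κ'' _ R'' hR''
      rw [← Nat.card_eq_fintype_card]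
      exact Nat.card_congr (Equiv.subtypeUnivEquiv hR'')
    rw [h5 R hR, h5 R' hR', h3]
  · have h5 : ∀ {κ'' : Type u} [Fintype κ''] (R'' : κ'' → F[X]), (∀ k, R'' k = X ^ r - C μ) → Nat.card {k // R'' k = Q} = 0 := by
      intro κ'' _ R'' hR''
      rw [Nat.card_eq_zero]
      left
      constructor
      rintro ⟨k, hk⟩
      exact h4 (hk ▸ hR'' k)
    rw [h5 R hR, h5 R' hR']

end LinAlg

section Exists

variable {F : Type u} [Field F] {n : ℕ}

/-- `T` with `T^r` a non-zero scalar is invertible -/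
theorem exists_of_pow_scalar (T : (Fin n → F) →ₗ[F] (Fin n → F)) (r : ℕ) (hr : r ≠ 0) (μ : Fˣ)
    (hT : T ^ r = (μ : F) • 1) : ∃ g : GL (Fin n) F, Tg g = T ∧ g ^ r = sc n μ := by
  obtain ⟨s, rfl⟩ : ∃ s, r = s + 1 := ⟨r - 1, by omega⟩
  obtain ⟨g, rfl⟩ := exists_of_inv T (((μ : F)⁻¹) • T ^ s)
    (by
      rw [mul_smul_comm, ← pow_succ', hT, smul_smul, inv_mul_cancel₀ μ.ne_zero, one_smul])
    (by
      rw [smul_mul_assoc, ← pow_succ, hT, smul_smul, inv_mul_cancel₀ μ.ne_zero, one_smul])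
  refine ⟨g, rfl, Tg_injective ?_⟩
  rw [← Tg_pow, hT, Tg_sc]

/-- existence in the non-power case -/
theorem exists_pow_mu {r : ℕ} (hr : r.Prime) {μ : Fˣ} (hμ : ∀ b : F, b ^ r ≠ (μ : F)) (m : ℕ) (hm : m * r = n) :
    ∃ g : GL (Fin n) F, g ^ r = sc n μ := by
  classical
  have hirr : Irreducible (X ^ r - C (μ : F) : F[X]) := X_pow_sub_C_irreducible_of_prime hr hμ
  let R : Fin m → F[X] := fun _ => X ^ r - C (μ : F)
  have hsum : ∑ k, (R k).natDegree = finrank F (Fin n → F) := by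
    have : ∀ k, (R k).natDegree = r := fun k => natDegree_X_pow_sub_C
    simp [this, ← hm]
  obtain ⟨T, Φ, hD⟩ := exists_ss R (fun _ => hirr) (fun _ => monic_X_pow_sub_C _ hr.ne_zero) hsum
  have hT : T ^ r = (μ : F) • 1 := by
    have h0 : aeval T (X ^ r - C (μ : F) : F[X]) = 0 := by
      apply LinearMap.ext
      intro x
      apply Φ.injective
      ext k
      rw [hD.comm_aeval, LinearMap.zero_apply, map_zero]
      have : AdjoinRoot.mk (R k) (X ^ r - C (μ : F)) = 0 := AdjoinRoot.mk_eq_zero.mpr dvd_rfl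
      rw [this, zero_mul]
      rfl
    simp only [map_sub, map_pow, aeval_X, aeval_C, sub_eq_zero] at h0
    exact h0
  obtain ⟨g, -, hg⟩ := exists_of_pow_scalar T r hr.ne_zero μ hT
  exact ⟨g, hg⟩

/-- existence with prescribed multiplicities -/
theorem exists_of_tuple {r : ℕ} (hr : 0 < r) {ι : Type*} [Fintype ι] [DecidableEq ι] (e : ι → F)
    (he : Function.Injective e) (he1 : ∀ j, e j ^ r = 1)
    (a : ι → ℕ) (hsum : ∑ j, a j = n) :
    ∃ g : GL (Fin n) F, g ^ r = 1 ∧ ∀ j, dm (Tg g) (e j) = a j := by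
  classical
  let R : (Σ j, Fin (a j)) → F[X] := fun k => X - C (e k.1)
  have hdeg : ∑ k, (R k).natDegree = finrank F (Fin n → F) := by
    have h1 : ∀ k, (R k).natDegree = 1 := fun k => natDegree_X_sub_C _
    simp [h1, hsum]
  obtain ⟨T, Φ, hD⟩ := exists_ss R (fun k => irreducible_X_sub_C _) (fun k => monic_X_sub_C _) hdeg
  have hT : T ^ r = 1 := by
    have h0 : aeval T (X ^ r - C 1 : F[X]) = 0 := by
      apply LinearMap.ext
      intro x
      apply Φ.injective
      ext k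
      rw [hD.comm_aeval, LinearMap.zero_apply, map_zero]
      have : AdjoinRoot.mk (R k) (X ^ r - C 1) = 0 := by
        rw [AdjoinRoot.mk_eq_zero]
        rw [dvd_iff_isRoot]
        simp [he1]
      rw [this, zero_mul]
      rfl
    simp only [map_sub, map_pow, aeval_X, aeval_C, sub_eq_zero, map_one] at h0
    exact h0
  obtain ⟨g, rfl⟩ := exists_of_pow T r hr.ne' hT
  refine ⟨g, ?_, fun j => ?_⟩
  · rw [← Tg_eq_one_iff, ← Tg_pow, hT]
  · rw [← card_fiber hD]
    have e1 : Fin (a j) ≃ {k // R k = X - C (e j)} :=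
      Equiv.ofBijective (fun x => ⟨⟨j, x⟩, rfl⟩) (by
        constructor
        · intro x y h
          have h1 := congrArg Subtype.val h
          simpa using h1
        · rintro ⟨⟨i, x⟩, h⟩
          have h1 : C (e i) = C (e j) := sub_right_injective h
          have h2 : i = j := he (C_injective h1)
          subst h2
          exact ⟨x, rfl⟩)
    rw [← Nat.card_congr e1, Nat.card_eq_fintype_card, Fintype.card_fin]

/-- a scalar has a trivial or full eigenspace. -/
theorem dm_scalar (d y : F) (n : ℕ) (T : (Fin n → F) →ₗ[F] (Fin n → F)) (hT : T = d • 1) (h : dm T y ≠ 0) :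
    dm T y = n := by
  by_cases hdy : d = y
  · subst hdy
    subst hT
    unfold dm
    rw [sub_self, LinearMap.ker_zero, finrank_top, Module.finrank_fintype_fun_eq_card, Fintype.card_fin]
  · exfalso
    apply h
    subst hT
    unfold dm
    have h1 : LinearMap.ker ((d • 1 : (Fin n → F) →ₗ[F] (Fin n → F)) - y • 1) = ⊥ := by
      rw [LinearMap.ker_eq_bot']
      intro v hv
      simp only [LinearMap.sub_apply, LinearMap.smul_apply, Module.End.one_apply] at hv
      rw [← sub_smul, smul_eq_zero] at hv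
      rcases hv with hv | hv
      · exact absurd (sub_eq_zero.1 hv) hdy
      · exact hv
    rw [h1, finrank_bot]

theorem dm_lt (g : GL (Fin n) F) (hn : 0 < n) (y : F) (hg : ∀ c : Fˣ, sc n c ≠ g) : dm (Tg g) y < n := by
  have hle : dm (Tg g) y ≤ n := by
    unfold dm
    have := Submodule.finrank_le (LinearMap.ker (Tg g - y • 1))
    rwa [Module.finrank_fintype_fun_eq_card, Fintype.card_fin] at this
  refine lt_of_le_of_ne hle ?_
  intro h
  have htop : LinearMap.ker (Tg g - y • 1) = ⊤ := by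
    apply Submodule.eq_top_of_finrank_eq
    rw [Module.finrank_fintype_fun_eq_card, Fintype.card_fin]
    exact h
  have hT : Tg g = y • 1 := by
    apply LinearMap.ext
    intro v
    have h1 : v ∈ LinearMap.ker (Tg g - y • 1) := by rw [htop]; trivial
    rw [LinearMap.mem_ker, LinearMap.sub_apply, sub_eq_zero] at h1
    exact h1
  have hy : y ≠ 0 := by
    rintro rfl
    have h2 := Tg_mul g g⁻¹
    rw [mul_inv_cancel, Tg_one, hT, zero_smul, zero_mul] at h2
    have h3 := congrFun (LinearMap.congr_fun h2 (fun _ => 1)) ⟨0, hn⟩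
    simp at h3
  apply hg (Units.mk0 y hy)
  apply Tg_injective
  rw [Tg_sc, hT]
  rfl

end Exists

section Main

variable {F : Type u} [Field F] {n : ℕ}

/-- images in the central quotient -/
theorem mk_conj {a b c : GL (Fin n) F} (h : IsConj a b) (d : Fˣ) (hb : b = sc n d * c) :
    IsConj (a : GL (Fin n) F ⧸ Subgroup.center (GL (Fin n) F)) (c : GL (Fin n) F ⧸ Subgroup.center (GL (Fin n) F)) := by
  have h1 := MonoidHom.map_isConj (QuotientGroup.mk' (Subgroup.center (GL (Fin n) F))) h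
  have h2 : ((b : GL (Fin n) F) : GL (Fin n) F ⧸ Subgroup.center (GL (Fin n) F)) = (c : GL (Fin n) F ⧸ Subgroup.center (GL (Fin n) F)) := by
    rw [QuotientGroup.eq, hb, sc_comm, mul_inv_rev, inv_mul_cancel_right]
    exact Subgroup.inv_mem _ ((mem_center_iff_sc _).mpr ⟨d, rfl⟩)
  rw [← h2]
  exact h1

/-- powers of conjugate elements -/
theorem conj_pow_scalar (hn0 : 0 < n) (r : ℕ) {a b : GL (Fin n) F} {l1 l2 : Fˣ} (ha : a ^ r = sc n l1)
    (hb : b ^ r = sc n l2) (c : Fˣ) (h : IsConj a (sc n c * b)) : l1 = c ^ r * l2 := by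
  have h1 := h.pow r
  rw [ha, sc_mul_pow, hb, ← map_mul] at h1
  obtain ⟨x, hx⟩ := isConj_iff.1 h1
  rw [← sc_comm, mul_assoc, mul_inv_cancel, mul_one] at hx
  exact sc_injective hn0 hx

end Main

end Cfsg.Agent.Lib.PGLr
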