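/-
Tuples of multiplicities and the rotation action.
-/
import Mathlib

set_option autoImplicit false

namespace Cfsg.Agent.Lib.PGLr

variable (r : ℕ) [hr : Fact r.Prime] (n : ℕ)

instance instNeZeroRot : NeZero r := ⟨hr.out.ne_zero⟩

/-- tuples of multiplicities, none of them everything. -/
abbrev AA := {a : ZMod r → ℕ // (∑ j, a j = n) ∧ ∀ j, a j < n}

theorem rot_sum (a : ZMod r → ℕ) (s : ZMod r) : ∑ j, a (j + s) = ∑ j, a j :=
  Equiv.sum_comp (Equiv.addRight s) a

/-- the rotation action. -/
@[instance_reducible] def rotAct : MulAction (Multiplicative (ZMod r)) (AA r n) where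
  smul s a := ⟨fun j => a.1 (j + Multiplicative.toAdd s), by
    rw [rot_sum]
    exact a.2.1, fun j => a.2.2 _⟩
  one_smul a := by
    apply Subtype.ext
    funext j
    change a.1 (j + Multiplicative.toAdd 1) = a.1 j
    simp
  mul_smul s t a := by
    apply Subtype.ext
    funext j
    change a.1 (j + Multiplicative.toAdd (s * t)) = a.1 (j + Multiplicative.toAdd s + Multiplicative.toAdd t)
    rw [toAdd_mul, add_assoc]

theorem card_all : Nat.card {a : ZMod r → ℕ // ∑ j, a j = n} = Nat.choose (n + r - 1) (r - 1) := by
  classical
  have hr1 := hr.out.one_le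
  rw [← Nat.card_congr (Sym.equivNatSumOfFintype (ZMod r) n), Nat.card_eq_fintype_card, Sym.card_sym_eq_choose,
    ZMod.card]
  have h1 : r + n - 1 = n + r - 1 := by omega
  rw [h1]
  exact Nat.choose_symm_of_eq_add (by omega)

/-- the number of tuples -/
theorem card_AA (hn : 1 ≤ n) : Nat.card (AA r n) + r = Nat.choose (n + r - 1) (r - 1) := by
  classical
  rw [← card_all r n]
  have hcompl : Nat.card {a : {a : ZMod r → ℕ // ∑ j, a j = n} // ¬ ∀ j, a.1 j < n} = r := by
    have e : ZMod r ≃ {a : {a : ZMod r → ℕ // ∑ j, a j = n} // ¬ ∀ j, a.1 j < n} :=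
      Equiv.ofBijective (fun j => ⟨⟨Pi.single j n, by simp⟩, by
        intro h
        have := h j
        simp at this⟩) (by
        constructor
        · intro j j' h
          have h1 := congrArg (fun a => a.1.1 j) h
          simp only [Pi.single_eq_same] at h1
          by_contra hjj
          rw [Pi.single_eq_of_ne hjj] at h1
          omega
        · rintro ⟨⟨a, ha⟩, ha'⟩
          push Not at ha'
          obtain ⟨j, hj⟩ := ha'
          have hj' : n ≤ a j := hj
          refine ⟨j, Subtype.ext (Subtype.ext ?_)⟩
          funext i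
          by_cases hi : i = j
          · subst hi
            simp only [Pi.single_eq_same]
            have := Finset.single_le_sum (f := a) (fun _ _ => Nat.zero_le _) (Finset.mem_univ i)
            omega
          · simp only [Pi.single_eq_of_ne hi]
            have h2 := Finset.add_sum_erase Finset.univ a (Finset.mem_univ j)
            have h3 := Finset.single_le_sum (f := a) (s := Finset.univ.erase j) (fun _ _ => Nat.zero_le _)
              (Finset.mem_erase.2 ⟨hi, Finset.mem_univ i⟩)
            omega)
    rw [← Nat.card_congr e, Nat.card_eq_fintype_card, ZMod.card]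
  have h1 : Nat.card (AA r n) = Nat.card {a : {a : ZMod r → ℕ // ∑ j, a j = n} // ∀ j, a.1 j < n} :=
    Nat.card_congr (Equiv.subtypeSubtypeEquivSubtypeInter _ _).symm
  haveI : Finite {a : ZMod r → ℕ // ∑ j, a j = n} := Finite.of_equiv _ (Sym.equivNatSumOfFintype (ZMod r) n)
  have h2 := Nat.card_congr (Equiv.sumCompl (fun a : {a : ZMod r → ℕ // ∑ j, a j = n} => ∀ j, a.1 j < n))
  rw [Nat.card_sum, hcompl] at h2
  rw [h1, h2]

/-- the number of orbits by Burnside's lemma. -/
theorem card_orbits (hn : 1 ≤ n) [Finite (AA r n)] :
    letI := rotAct r n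
    Nat.card (Quotient (MulAction.orbitRel (Multiplicative (ZMod r)) (AA r n))) * r =
      Nat.card (AA r n) + (r - 1) * (if r ∣ n then 1 else 0) := by
  classical
  letI := rotAct r n
  haveI : Fintype (AA r n) := Fintype.ofFinite _
  haveI : ∀ s : Multiplicative (ZMod r), Fintype (MulAction.fixedBy (AA r n) s) := fun _ => Fintype.ofFinite _
  haveI : Fintype (Quotient (MulAction.orbitRel (Multiplicative (ZMod r)) (AA r n))) := Fintype.ofFinite _
  have hB := MulAction.sum_card_fixedBy_eq_card_orbits_mul_card_group (Multiplicative (ZMod r)) (AA r n)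
  have hcardG : Fintype.card (Multiplicative (ZMod r)) = r := by
    rw [Fintype.card_multiplicative, ZMod.card]
  rw [hcardG] at hB
  rw [Nat.card_eq_fintype_card, Nat.card_eq_fintype_card, ← hB]
  rw [← Finset.add_sum_erase _ _ (Finset.mem_univ (1 : Multiplicative (ZMod r)))]
  congr 1
  · refine Fintype.card_congr (Equiv.subtypeUnivEquiv fun a => ?_)
    exact one_smul _ a
  · have hfix : ∀ s ∈ Finset.univ.erase (1 : Multiplicative (ZMod r)),
        Fintype.card (MulAction.fixedBy (AA r n) s) = if r ∣ n then 1 else 0 := by
      intro s hs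
      have hs1 : Multiplicative.toAdd s ≠ 0 := fun h => (Finset.mem_erase.1 hs).1 h
      have hconst : ∀ a : AA r n, a ∈ MulAction.fixedBy (AA r n) s → ∀ j, a.1 j = a.1 0 := by
        intro a ha
        have h1 : ∀ j, a.1 (j + Multiplicative.toAdd s) = a.1 j := fun j =>
          congrFun (congrArg Subtype.val ha) j
        have h2 : ∀ (m : ℕ) (j : ZMod r), a.1 (j + m • Multiplicative.toAdd s) = a.1 j := by
          intro m
          induction m with
          | zero => simp
          | succ m ih =>
            intro j
            rw [succ_nsmul, ← add_assoc, h1, ih]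
        intro j
        have h3 : ∃ m : ℕ, m • Multiplicative.toAdd s = j := by
          have hunit : IsUnit (Multiplicative.toAdd s) := by
            haveI : Fact r.Prime := hr
            exact isUnit_iff_ne_zero.2 hs1
          obtain ⟨u, hu⟩ := hunit
          refine ⟨(j * (u⁻¹ : (ZMod r)ˣ)).val, ?_⟩
          rw [nsmul_eq_mul, ZMod.natCast_zmod_val, ← hu, mul_assoc, Units.inv_mul, mul_one]
        obtain ⟨m, hm⟩ := h3
        have h4 := h2 m 0
        rw [zero_add, hm] at h4
        exact h4
      have hsum : ∀ a : AA r n, a ∈ MulAction.fixedBy (AA r n) s → r * a.1 0 = n := by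
        intro a ha
        have h5 := a.2.1
        rw [Finset.sum_congr rfl (fun j _ => hconst a ha j), Finset.sum_const, Finset.card_univ, ZMod.card,
          smul_eq_mul] at h5
        exact h5
      split_ifs with hdvd
      · rw [Fintype.card_eq_one_iff]
        obtain ⟨m, hm⟩ := hdvd
        have hr2 : 2 ≤ r := hr.out.two_le
        have hmpos : 1 ≤ m := by
          rcases Nat.eq_zero_or_pos m with h | h
          · subst h
            omega
          · exact h
        have hmn : m < n := by
          rw [hm]
          nlinarith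
        have hsum2 : ∑ j : ZMod r, (fun _ => m : ZMod r → ℕ) j = n := by
          rw [Finset.sum_const, Finset.card_univ, ZMod.card, smul_eq_mul, hm]
        let a0 : AA r n := ⟨fun _ => m, hsum2, fun _ => hmn⟩
        refine ⟨⟨a0, rfl⟩, ?_⟩
        rintro ⟨a, ha⟩
        apply Subtype.ext
        apply Subtype.ext
        funext j
        change a.1 j = m
        rw [hconst a ha j]
        have h6 : r * a.1 0 = r * m := (hsum a ha).trans hm
        exact Nat.eq_of_mul_eq_mul_left (by omega) h6
      · rw [Fintype.card_eq_zero_iff]
        refine ⟨?_⟩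
        rintro ⟨a, ha⟩
        exact hdvd ⟨_, (hsum a ha).symm⟩
    rw [Finset.sum_congr rfl hfix, Finset.sum_const, Finset.card_erase_of_mem (Finset.mem_univ _),
      Finset.card_univ, hcardG, smul_eq_mul]

end Cfsg.Agent.Lib.PGLr
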